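import Mathlib

/-!
A double cover of the symmetric group of even degree `N`, realised by linear operators on the
functions on subsets of `Fin N` over the field of three elements (Clifford algebra action).
-/

set_option autoImplicit false

namespace CfsgLib.AltCliff

open Equiv

variable {N : ℕ}

/-- Toggle membership of `k`. -/
def tog (k : Fin N) (S : Finset (Fin N)) : Finset (Fin N) := symmDiff S {k}

theorem tog_tog (k : Fin N) (S : Finset (Fin N)) : tog k (tog k S) = S :=
  symmDiff_symmDiff_cancel_right _ _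

theorem tog_comm (k l : Fin N) (S : Finset (Fin N)) : tog l (tog k S) = tog k (tog l S) :=
  symmDiff_right_comm _ _ _

theorem tog_of_notMem {k : Fin N} {S : Finset (Fin N)} (h : k ∉ S) : tog k S = insert k S := by
  ext j; simp only [tog, Finset.mem_symmDiff, Finset.mem_insert, Finset.mem_singleton]; grind

theorem tog_of_mem {k : Fin N} {S : Finset (Fin N)} (h : k ∈ S) : tog k S = S.erase k := by
  ext j; simp only [tog, Finset.mem_symmDiff, Finset.mem_erase, Finset.mem_singleton]; grind

/-- Product of a sign function over a subset. -/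
def pr (c : Fin N → ZMod 3) (S : Finset (Fin N)) : ZMod 3 := ∏ j ∈ S, c j

theorem pr_tog {c : Fin N → ZMod 3} (hc : ∀ j, c j * c j = 1) (k : Fin N) (S : Finset (Fin N)) :
    pr c (tog k S) = c k * pr c S := by
  by_cases h : k ∈ S
  · rw [tog_of_mem h, pr, pr, ← Finset.mul_prod_erase S c h, ← mul_assoc, hc, one_mul]
  · rw [tog_of_notMem h, pr, pr, Finset.prod_insert h]

theorem pr_sq {c : Fin N → ZMod 3} (hc : ∀ j, c j * c j = 1) (S : Finset (Fin N)) :
    pr c S * pr c S = 1 := by
  rw [pr, ← Finset.prod_mul_distrib]; exact Finset.prod_eq_one fun j _ => hc j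

/-- The sign function for the left action. -/
def lft (k : Fin N) : Fin N → ZMod 3 := fun j => if j < k then -1 else 1

/-- The sign function for the right action. -/
def rgt (k : Fin N) : Fin N → ZMod 3 := fun j => if k < j then -1 else 1

theorem lft_sq (k j : Fin N) : lft k j * lft k j = 1 := by unfold lft; split <;> simp

theorem rgt_sq (k j : Fin N) : rgt k j * rgt k j = 1 := by unfold rgt; split <;> simp

/-- The space acted upon. -/
abbrev Sp (N : ℕ) := Finset (Fin N) → ZMod 3

/-- A signed toggle operator. -/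
def op (c : Fin N → ZMod 3) (k : Fin N) : Module.End (ZMod 3) (Sp N) where
  toFun f S := pr c S * f (tog k S)
  map_add' f g := funext fun S => by simp [mul_add]
  map_smul' a f := funext fun S => by simp [mul_left_comm]

theorem op_apply (c : Fin N → ZMod 3) (k : Fin N) (f : Sp N) (S : Finset (Fin N)) :
    op c k f S = pr c S * f (tog k S) := rfl

theorem op_comm {c d : Fin N → ZMod 3} (hc : ∀ j, c j * c j = 1) (hd : ∀ j, d j * d j = 1)
    (k l : Fin N) : op c k * op d l = (d k * c l) • (op d l * op c k) := by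
  refine LinearMap.ext fun f => funext fun S => ?_
  simp only [Module.End.mul_apply, LinearMap.smul_apply, Pi.smul_apply, smul_eq_mul, op_apply,
    pr_tog hc, pr_tog hd, tog_comm k l]
  linear_combination (pr c S * pr d S * d k * f (tog k (tog l S))) * (-(hc l))

theorem op_sq {c : Fin N → ZMod 3} (hc : ∀ j, c j * c j = 1) {k : Fin N} (hk : c k = 1) :
    op c k * op c k = 1 := by
  refine LinearMap.ext fun f => funext fun S => ?_
  simp only [Module.End.mul_apply, Module.End.one_apply, op_apply, pr_tog hc, hk, tog_tog,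
    one_mul, ← mul_assoc, pr_sq hc]

/-- The Clifford generators. -/
def cl (k : Fin N) : Module.End (ZMod 3) (Sp N) := op (lft k) k

/-- The commuting right generators. -/
def cr (k : Fin N) : Module.End (ZMod 3) (Sp N) := op (rgt k) k

theorem cl_sq (k : Fin N) : cl k * cl k = 1 := op_sq (lft_sq k) (by simp [lft])

theorem negone_smul' (x : Module.End (ZMod 3) (Sp N)) : (-1 : ZMod 3) • x = -x :=
  neg_one_smul (ZMod 3) x

theorem negone_units (x y : (Module.End (ZMod 3) (Sp N))ˣ) : -x * y = -(x * y) :=
  Units.ext (neg_mul (x : Module.End (ZMod 3) (Sp N)) (y : Module.End (ZMod 3) (Sp N)))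

theorem cl_anti {k l : Fin N} (h : k ≠ l) : cl k * cl l = -(cl l * cl k) := by
  rw [cl, cl, op_comm (lft_sq k) (lft_sq l)]
  have : lft l k * lft k l = -1 := by
    rcases lt_or_gt_of_ne h with h' | h' <;> simp [lft, h', h'.asymm]
  rw [this]; exact negone_smul' _

theorem cl_cr (k l : Fin N) : cl k * cr l = cr l * cl k := by
  rw [cl, cr, op_comm (lft_sq k) (rgt_sq l)]
  have : rgt l k * lft k l = 1 := by
    rcases lt_trichotomy k l with h' | h' | h'
    · simp [lft, rgt, h'.asymm]
    · simp [lft, rgt, h']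
    · simp [lft, rgt, h']
  rw [this, one_smul]

/-- The diagonal signs of `cl k * cr k`. -/
theorem cl_mul_cr (k : Fin N) (f : Sp N) (S : Finset (Fin N)) :
    (cl k * cr k) f S = ((-1) ^ S.card * if k ∈ S then -1 else 1) * f S := by
  have h1 : pr (lft k) S * pr (rgt k) S = (-1) ^ S.card * if k ∈ S then -1 else 1 := by
    rw [pr, pr, ← Finset.prod_mul_distrib]
    have : ∀ j ∈ S, lft k j * rgt k j = (-1) * if k = j then -1 else 1 := by
      intro j _
      rcases lt_trichotomy j k with h' | h' | h'
      · simp [lft, rgt, h', h'.asymm, h'.ne']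
      · simp [lft, rgt, h']
      · simp [lft, rgt, h', h'.asymm, h'.ne]
    rw [Finset.prod_congr rfl this, Finset.prod_mul_distrib, Finset.prod_const, Finset.prod_ite_eq]
  have h2 : rgt k k = 1 := by simp [rgt]
  rw [Module.End.mul_apply, cl, cr, op_apply, op_apply, tog_tog, pr_tog (rgt_sq k), h2, one_mul,
    ← mul_assoc, h1]

theorem two_eq_neg_one : (1 : Module.End (ZMod 3) (Sp N)) + 1 = -1 := by
  have h : ∀ a : ZMod 3, a + a = -a := by decide
  exact LinearMap.ext fun f => funext fun S => h (f S)

/-- The sign of a permutation in the field of three elements. -/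
def sgn (σ : Perm (Fin N)) : ZMod 3 := ((Perm.sign σ : ℤ) : ZMod 3)

theorem sgn_mul (σ τ : Perm (Fin N)) : sgn (σ * τ) = sgn σ * sgn τ := by simp [sgn]

theorem sgn_one : sgn (1 : Perm (Fin N)) = 1 := by simp [sgn]

theorem sgn_sq (σ : Perm (Fin N)) : sgn σ * sgn σ = 1 := by
  rcases Int.units_eq_one_or (Perm.sign σ) with h | h <;> simp [sgn, h]

theorem sgn_inv (σ : Perm (Fin N)) : sgn σ⁻¹ = sgn σ := by simp [sgn]

/-- `g` commutes with the right generators and permutes the left ones according to `σ`. -/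
def Induces (g : (Module.End (ZMod 3) (Sp N))ˣ) (σ : Perm (Fin N)) : Prop :=
  (∀ k, (g : Module.End (ZMod 3) (Sp N)) * cr k = cr k * (g : Module.End (ZMod 3) (Sp N))) ∧
    ∀ k, (g : Module.End (ZMod 3) (Sp N)) * cl k = sgn σ • (cl (σ k) * (g : Module.End (ZMod 3) (Sp N)))

theorem induces_one : Induces (1 : (Module.End (ZMod 3) (Sp N))ˣ) 1 :=
  ⟨fun k => by simp, fun k => by simp [sgn_one]⟩

theorem induces_mul {g h : (Module.End (ZMod 3) (Sp N))ˣ} {σ τ : Perm (Fin N)}
    (hg : Induces g σ) (hh : Induces h τ) : Induces (g * h) (σ * τ) := by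
  refine ⟨fun k => ?_, fun k => ?_⟩
  · rw [Units.val_mul, mul_assoc, hh.1, ← mul_assoc, hg.1, mul_assoc]
  · rw [Units.val_mul, mul_assoc, hh.2, mul_smul_comm, ← mul_assoc, hg.2, smul_mul_assoc,
      smul_smul, sgn_mul, mul_comm (sgn σ), Perm.mul_apply, mul_assoc]

theorem induces_inv {g : (Module.End (ZMod 3) (Sp N))ˣ} {σ : Perm (Fin N)}
    (hg : Induces g σ) : Induces g⁻¹ σ⁻¹ := by
  refine ⟨fun k => ?_, fun k => ?_⟩
  · exact (Commute.units_inv_left (show Commute _ _ from hg.1 k)).eq
  · have h1 := hg.2 (σ⁻¹ k)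
    rw [show σ (σ⁻¹ k) = k from Equiv.apply_symm_apply σ k] at h1
    refine g.isUnit.mul_left_cancel ?_
    rw [← mul_assoc, Units.mul_inv, one_mul, sgn_inv, mul_smul_comm, ← mul_assoc, h1,
      smul_mul_assoc, smul_smul, sgn_sq, one_smul, mul_assoc, Units.mul_inv, mul_one]

theorem induces_unique {g : (Module.End (ZMod 3) (Sp N))ˣ} {σ τ : Perm (Fin N)}
    (hs : Induces g σ) (ht : Induces g τ) : σ = τ := by
  refine Equiv.ext fun k => ?_
  by_contra hne
  have h := (hs.2 k).symm.trans (ht.2 k)
  rw [← smul_mul_assoc, ← smul_mul_assoc] at h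
  have h' := congrArg (fun x : Module.End (ZMod 3) (Sp N) => x (Pi.single ∅ 1) {σ k})
    (g.isUnit.mul_right_cancel h)
  have e1 : tog (σ k) {σ k} = ∅ := by rw [tog_of_mem (by simp)]; simp
  have e2 : tog (τ k) {σ k} ≠ ∅ := by
    rw [tog_of_notMem (by simpa using Ne.symm hne)]; exact Finset.insert_ne_empty _ _
  simp only [LinearMap.smul_apply, Pi.smul_apply, smul_eq_mul, cl, op_apply, e1, Pi.single_eq_same,
    Pi.single_eq_of_ne e2, mul_one, mul_zero] at h'
  have h2 := sgn_sq σ
  have h3 := pr_sq (lft_sq (σ k)) {σ k}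
  have : (1 : ZMod 3) = 0 := by
    linear_combination (sgn σ * pr (lft (σ k)) {σ k}) * h' - (sgn σ * sgn σ) * h3 - h2
  exact absurd this one_ne_zero

/-- The cover of the symmetric group. -/
def cover (N : ℕ) : Subgroup (Module.End (ZMod 3) (Sp N))ˣ where
  carrier := {g | ∃ σ, Induces g σ}
  one_mem' := ⟨1, induces_one⟩
  mul_mem' := fun ⟨_, hg⟩ ⟨_, hh⟩ => ⟨_, induces_mul hg hh⟩
  inv_mem' := fun ⟨_, hg⟩ => ⟨_, induces_inv hg⟩

/-- The projection to the symmetric group. -/
noncomputable def proj (N : ℕ) : cover N →* Perm (Fin N) :=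
  MonoidHom.mk' (fun g => g.2.choose) fun g h =>
    induces_unique (g * h).2.choose_spec (induces_mul g.2.choose_spec h.2.choose_spec)

theorem induces_proj (g : cover N) : Induces g.1 (proj N g) := g.2.choose_spec

theorem proj_eq {g : cover N} {σ : Perm (Fin N)} (h : Induces g.1 σ) : proj N g = σ :=
  induces_unique (induces_proj g) h

theorem swap_aux {i j : Fin N} (hij : i ≠ j) :
    (cl i - cl j) * (cl i - cl j) = -1 := by
  rw [sub_mul, mul_sub, mul_sub, cl_sq, cl_sq, cl_anti hij, ← two_eq_neg_one]
  abel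

/-- The lift of a transposition. -/
def liftSwap {i j : Fin N} (hij : i ≠ j) : (Module.End (ZMod 3) (Sp N))ˣ where
  val := cl i - cl j
  inv := -(cl i - cl j)
  val_inv := by
    have h := mul_neg (cl i - cl j) (cl i - cl j)
    exact h.trans (by rw [swap_aux hij]; exact neg_neg _)
  inv_val := by
    have h := neg_mul (cl i - cl j) (cl i - cl j)
    exact h.trans (by rw [swap_aux hij]; exact neg_neg _)

theorem induces_liftSwap {i j : Fin N} (hij : i ≠ j) : Induces (liftSwap hij) (swap i j) := by
  refine ⟨fun k => ?_, fun k => ?_⟩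
  · simp only [liftSwap, sub_mul, mul_sub, cl_cr]
  · have hs : sgn (swap i j) = (-1 : ZMod 3) := by simp [sgn, Perm.sign_swap hij]
    simp only [liftSwap, hs, sub_mul, mul_sub, negone_smul']
    rcases eq_or_ne k i with rfl | hki
    · rw [swap_apply_left, cl_sq, cl_sq]; abel
    · rcases eq_or_ne k j with rfl | hkj
      · rw [swap_apply_right, cl_sq, cl_sq]; abel
      · rw [swap_apply_of_ne_of_ne hki hkj, cl_anti (Ne.symm hki), cl_anti (Ne.symm hkj)]; abel

theorem proj_surjective : Function.Surjective (proj N) := by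
  rw [← MonoidHom.range_eq_top, eq_top_iff, ← Equiv.Perm.closure_isSwap, Subgroup.closure_le]
  rintro s ⟨i, j, hij, rfl⟩
  exact ⟨⟨liftSwap hij, _, induces_liftSwap hij⟩, proj_eq (induces_liftSwap hij)⟩

theorem mem_cover_neg_one : (-1 : (Module.End (ZMod 3) (Sp N))ˣ) ∈ cover N :=
  ⟨1, fun k => by simp, fun k => by simp [sgn_one]⟩

theorem eq_scalar (hN : Even N) (x : Module.End (ZMod 3) (Sp N)) (hl : ∀ k, x * cl k = cl k * x)
    (hr : ∀ k, x * cr k = cr k * x) : ∃ a : ZMod 3, x = a • 1 := by
  have hd : ∀ k, x * (cl k * cr k) = cl k * cr k * x := fun k =>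
    (Commute.mul_right (show Commute _ _ from hl k) (hr k)).eq
  set χ : Fin N → Finset (Fin N) → ZMod 3 := fun k S => (-1) ^ S.card * if k ∈ S then -1 else 1
  have hoff : ∀ S T, S ≠ T → x (Pi.single T 1) S = 0 := by
    intro S T hST
    obtain ⟨k, hk⟩ : ∃ k, χ k S ≠ χ k T := by
      have hne : ∀ a : ℕ, ((-1 : ZMod 3) ^ a) ≠ -((-1) ^ a) := fun a => by
        rcases neg_one_pow_eq_or (ZMod 3) a with h | h <;> rw [h] <;> decide
      by_cases hp : Even (S.card + T.card)
      · obtain ⟨k, hk⟩ : ∃ k, ¬ (k ∈ S ↔ k ∈ T) := by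
          by_contra h; push Not at h; exact hST (Finset.ext h)
        have hpow : ((-1 : ZMod 3) ^ T.card) = (-1) ^ S.card :=
          neg_one_pow_congr (by rw [Nat.even_add] at hp; exact hp.symm)
        refine ⟨k, ?_⟩
        by_cases h1 : k ∈ S
        · have h2 : k ∉ T := fun h => hk (iff_of_true h1 h)
          simpa [χ, h1, h2, hpow] using (hne S.card).symm
        · have h2 : k ∈ T := by by_contra h; exact hk (iff_of_false h1 h)
          simpa [χ, h1, h2, hpow] using hne S.card
      · obtain ⟨k, hk⟩ : ∃ k, (k ∈ S ↔ k ∈ T) := by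
          by_contra h
          push Not at h
          have hTS : T = Sᶜ := by ext k; have := h k; simp; tauto
          rw [hTS, Finset.card_compl, Fintype.card_fin,
            Nat.add_sub_cancel' ((Finset.card_le_univ S).trans_eq (Fintype.card_fin N))] at hp
          exact hp hN
        have hpow : ((-1 : ZMod 3) ^ T.card) = -((-1) ^ S.card) := by
          rw [Nat.even_add] at hp
          rcases Nat.even_or_odd S.card with h | h
          · have : Odd T.card := by rw [← Nat.not_even_iff_odd]; tauto
            simp [h.neg_one_pow, this.neg_one_pow]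
          · have : Even T.card := by rw [← Nat.not_even_iff_odd] at h; tauto
            simp [h.neg_one_pow, this.neg_one_pow]
        refine ⟨k, ?_⟩
        by_cases h1 : k ∈ S
        · simpa [χ, h1, hk.1 h1, hpow] using (hne S.card).symm
        · simpa [χ, h1, mt hk.2 h1, hpow] using hne S.card
    have he : (cl k * cr k) (Pi.single T 1) = χ k T • (Pi.single T 1 : Sp N) := by
      funext U
      rw [cl_mul_cr, Pi.smul_apply, smul_eq_mul]
      rcases eq_or_ne U T with rfl | h
      · rfl
      · simp [Pi.single_eq_of_ne h]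
    have h := congrArg (fun y : Module.End (ZMod 3) (Sp N) => y (Pi.single T 1) S) (hd k)
    simp only [Module.End.mul_apply x, he, map_smul, Pi.smul_apply, smul_eq_mul,
      Module.End.mul_apply (cl k * cr k), cl_mul_cr] at h
    by_contra h0
    exact hk (mul_right_cancel₀ h0 h).symm
  have hstep : ∀ k T, x (Pi.single (tog k T) 1) (tog k T) = x (Pi.single T 1) T := by
    intro k T
    have he : cl k (Pi.single T 1) = pr (lft k) (tog k T) • (Pi.single (tog k T) 1 : Sp N) := by
      funext U
      rw [cl, op_apply, Pi.smul_apply, smul_eq_mul]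
      rcases eq_or_ne U (tog k T) with rfl | h
      · rw [tog_tog]; simp
      · have : tog k U ≠ T := fun e => h (by rw [← e, tog_tog])
        simp [Pi.single_eq_of_ne h, Pi.single_eq_of_ne this]
    have h := congrArg (fun y : Module.End (ZMod 3) (Sp N) => y (Pi.single T 1) (tog k T)) (hl k)
    simp only [Module.End.mul_apply, he, map_smul, Pi.smul_apply, smul_eq_mul] at h
    rw [cl, op_apply, tog_tog] at h
    refine mul_left_cancel₀ (fun h0 => ?_) h
    have h4 := pr_sq (lft_sq k) (tog k T)
    rw [h0, zero_mul] at h4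
    exact absurd h4 zero_ne_one
  refine ⟨x (Pi.single ∅ 1) ∅, ?_⟩
  have hdiag : ∀ T, x (Pi.single T 1) T = x (Pi.single ∅ 1) ∅ := by
    intro T
    induction T using Finset.induction_on with
    | empty => rfl
    | insert k S hk ih => rw [← tog_of_notMem hk, hstep, ih]
  refine (Pi.basisFun (ZMod 3) (Finset (Fin N))).ext fun T => funext fun S => ?_
  rw [Pi.basisFun_apply, LinearMap.smul_apply, Module.End.one_apply, Pi.smul_apply, smul_eq_mul]
  rcases eq_or_ne S T with rfl | h
  · rw [hdiag, Pi.single_eq_same, mul_one]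
  · rw [hoff S T h, Pi.single_eq_of_ne h, mul_zero]

theorem ker_proj (hN : Even N) {g : cover N} (hg : proj N g = 1) :
    g = 1 ∨ g = ⟨-1, mem_cover_neg_one⟩ := by
  have h := induces_proj g
  rw [hg] at h
  obtain ⟨a, ha⟩ := eq_scalar hN (g.1 : Module.End (ZMod 3) (Sp N))
    (fun k => by simpa [sgn_one] using h.2 k) h.1
  have hcases : ∀ b : ZMod 3, b = 0 ∨ b = 1 ∨ b = -1 := by decide
  rcases hcases a with rfl | rfl | rfl
  · rw [zero_smul] at ha
    have h1 := g.1.mul_inv
    rw [ha, zero_mul] at h1
    exact absurd (congrArg (fun y : Module.End (ZMod 3) (Sp N) => y (fun _ => 1) ∅) h1) (by simp)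
  · exact Or.inl (Subtype.ext (Units.ext (by simpa using ha)))
  · exact Or.inr (Subtype.ext (Units.ext (ha.trans ((negone_smul' _).trans rfl))))

theorem neg_one_ne_one : (-1 : (Module.End (ZMod 3) (Sp N))ˣ) ≠ 1 := by
  intro h
  have := congrArg (fun y : (Module.End (ZMod 3) (Sp N))ˣ =>
    (y : Module.End (ZMod 3) (Sp N)) (fun _ => 1) ∅) h
  simp at this
  have hn : ¬ (-1 : ZMod 3) = 1 := by decide
  exact hn this

/-- Products of disjoint transposition lifts generating a quaternion group. -/
theorem quaternion {i j k l : Fin N} (hij : i ≠ j) (hik : i ≠ k) (hil : i ≠ l) (hjk : j ≠ k)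
    (hjl : j ≠ l) (hkl : k ≠ l) :
    liftSwap hij * liftSwap hkl * (liftSwap hik * liftSwap hjl) * (liftSwap hij * liftSwap hkl)⁻¹ * (liftSwap hik * liftSwap hjl)⁻¹ = -1 := by
  set a := liftSwap hij * liftSwap hkl
  set b := liftSwap hik * liftSwap hjl
  have ha := induces_mul (induces_liftSwap hij) (induces_liftSwap hkl)
  have hs : sgn (swap i j * swap k l) = (1 : ZMod 3) := by
    simp [sgn_mul, sgn, Perm.sign_swap hij, Perm.sign_swap hkl]
  have hcl : ∀ m, (a : Module.End (ZMod 3) (Sp N)) * cl m
      = cl ((swap i j * swap k l) m) * (a : Module.End (ZMod 3) (Sp N)) := fun m => by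
    rw [ha.2 m, hs, one_smul]
  have si : (swap i j * swap k l) i = j := by simp [swap_apply_of_ne_of_ne hik hil]
  have sj : (swap i j * swap k l) j = i := by simp [swap_apply_of_ne_of_ne hjk hjl]
  have sk : (swap i j * swap k l) k = l := by simp [swap_apply_of_ne_of_ne hil.symm hjl.symm]
  have sl : (swap i j * swap k l) l = k := by simp [swap_apply_of_ne_of_ne hik.symm hjk.symm]
  have h1 : (a : Module.End (ZMod 3) (Sp N)) * ((cl i - cl k) * (cl j - cl l))
      = ((cl j - cl l) * (cl i - cl k)) * (a : Module.End (ZMod 3) (Sp N)) := by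
    rw [← mul_assoc, mul_sub (a : Module.End (ZMod 3) (Sp N)), hcl, hcl, si, sk, ← sub_mul, mul_assoc,
      mul_sub (a : Module.End (ZMod 3) (Sp N)), hcl, hcl, sj, sl, ← sub_mul, ← mul_assoc]
  have h2 : (cl j - cl l) * (cl i - cl k) = -((cl i - cl k) * (cl j - cl l)) := by
    simp only [sub_mul, mul_sub, cl_anti hij.symm, cl_anti hil.symm, cl_anti hjk, cl_anti hkl.symm]
    abel
  have h3 : a * b = -(b * a) := Units.ext (by
    show (a : Module.End (ZMod 3) (Sp N)) * ((cl i - cl k) * (cl j - cl l))
      = -(((cl i - cl k) * (cl j - cl l)) * (a : Module.End (ZMod 3) (Sp N)))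
    rw [h1, h2]; exact neg_mul ((cl i - cl k) * (cl j - cl l)) (a : Module.End (ZMod 3) (Sp N)))
  rw [h3, negone_units, negone_units, mul_inv_cancel_right, mul_inv_cancel]

end CfsgLib.AltCliff
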